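/-
helper728 (S5761, task 2827): separation in a group between `Inn T` and `Aut T`.
-/
import Mathlib
import Cfsg.Agent.H233.B3.Row3
import Cfsg.Agent.H68.MeetBase

/-!
# Separation modulo field automorphisms (helper728)

* `exists_in_normal` : Frattini: the separating element can be chosen in a normal subgroup with abelian quotient;
* `row3_of_split` : `Aut T → C`, `C` cyclic, with kernel `A ≥ Inn T`, `A / Inn T` abelian, `MeetIn 2 A`.
-/

set_option autoImplicit false

namespace Cfsg.Agent.H728.B3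

open Subgroup Cfsg.Agent.H233.B3 Cfsg.Agent.H68.MeetB Cfsg.Agent.H903.SylMeet

/-- **Frattini.** If `Q / N` is abelian, a `p`-subgroup is separated from itself by an element of `N`. -/
theorem exists_in_normal {Q : Type*} [Group Q] [Finite Q] {p : ℕ} [Fact p.Prime] (hM : MeetIn p Q) (N : Subgroup Q)
    (hN : N.Normal) (hc : commutator Q ≤ N) {P : Subgroup Q} (hP : IsPGroup p P) :
    ∃ t ∈ N, ∀ y ∈ P, t * y * t⁻¹ ∈ P → y = 1 := by
  obtain ⟨S, hS⟩ := hP.exists_le_sylow
  obtain ⟨x, hx⟩ := hM S S.isPGroup'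
  have hMn : (N ⊔ (S : Subgroup Q)).Normal := by
    constructor
    intro m hm g
    have h1 : g * m * g⁻¹ * m⁻¹ ∈ commutator Q := by
      rw [commutator_def]
      exact Subgroup.commutator_mem_commutator trivial trivial
    have h2 : g * m * g⁻¹ = (g * m * g⁻¹ * m⁻¹) * m := by group
    rw [h2]
    exact mul_mem ((hc.trans le_sup_left) h1) hm
  have h1 : Subgroup.normalizer ((S : Subgroup Q) : Set Q) ⊔ (N ⊔ (S : Subgroup Q)) = ⊤ :=
    Sylow.normalizer_sup_eq_top' (N := N ⊔ (S : Subgroup Q)) S le_sup_right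
  have h2 : Subgroup.normalizer ((S : Subgroup Q) : Set Q) ⊔ N = ⊤ := by
    rw [eq_top_iff, ← h1]
    exact sup_le le_sup_left (sup_le le_sup_right (Subgroup.le_normalizer.trans le_sup_left))
  have h3 : x ∈ Subgroup.normalizer ((S : Subgroup Q) : Set Q) ⊔ N := by
    rw [h2]
    trivial
  obtain ⟨g, hg, t, ht, e⟩ := Subgroup.mem_sup_of_normal_right.1 h3
  refine ⟨t, ht, fun y hy hty => hx y (hS hy) ?_⟩
  have h4 := (Subgroup.mem_normalizer_iff.1 hg (t * y * t⁻¹)).1 (hS hty)
  have h5 : x * y * x⁻¹ = g * (t * y * t⁻¹) * g⁻¹ := by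
    rw [← e]
    group
  rw [h5]
  exact h4

/-- `Aut T → C`, `C` cyclic, with kernel `A`, `[A, A] ≤ Inn T` and `MeetIn 2 A`. -/
theorem row3_of_split {T : Type*} [Group T] [Finite T] [IsSimpleGroup T] (hT : ¬ IsMulCommutative T)
    {C : Type*} [Group C] [Finite C] [IsCyclic C] (ψ : MulAut T →* C)
    (hc : ⁅ψ.ker, ψ.ker⁆ ≤ (MulAut.conj : T →* MulAut T).range) (hM : MeetIn 2 ψ.ker)
    (hn : Nat.card C ≤ 4 ∨ ∀ Q : Subgroup T, IsPGroup 2 Q → 3 * Nat.card C < Q.index) : Row3 2 T := by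
  intro P hP
  have hF : Fact (Nat.Prime 2) := ⟨Nat.prime_two⟩
  have hNn : (((MulAut.conj : T →* MulAut T).range).subgroupOf ψ.ker).Normal := ⟨by
    rintro n ⟨t, ht⟩ g
    refine ⟨(g : MulAut T) t, ?_⟩
    rw [← conj_apply_aut, ht]
    rfl⟩
  have hcc : commutator ψ.ker ≤ ((MulAut.conj : T →* MulAut T).range).subgroupOf ψ.ker := by
    rw [commutator_def, Subgroup.commutator_le]
    intro g _ h _
    rw [Subgroup.mem_subgroupOf]
    exact hc (Subgroup.commutator_mem_commutator g.2 h.2)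
  have hPp : IsPGroup 2 (P.subgroupOf ψ.ker) := hP.comap_of_injective _ (Subgroup.subtype_injective _)
  obtain ⟨t, ⟨x, hxt⟩, ht⟩ := exists_in_normal hM _ hNn hcc hPp
  have hx : ∀ y ∈ DD P x, y ∈ ψ.ker → y = 1 := by
    intro y hy hyk
    have h1 := ht ⟨y, hyk⟩ hy.1 (by
      rw [Subgroup.mem_subgroupOf]
      change (t : MulAut T) * y * (t : MulAut T)⁻¹ ∈ P
      have h2 : (t : MulAut T) = MulAut.conj x := hxt.symm
      rw [h2]
      exact hy.2)
    exact congrArg Subtype.val h1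
  let φ : DD P x →* C := ψ.comp (DD P x).subtype
  have hφ : Function.Injective φ := by
    rw [injective_iff_map_eq_one]
    intro y hy
    exact Subtype.ext (hx y y.2 hy)
  have hone : ∀ y ∈ DD P x, ∀ y' ∈ DD P x, y * y = 1 → y' * y' = 1 → y ≠ 1 → y' ≠ 1 → y = y' := by
    intro y hy y' hy' h1 h1' h2 h2'
    have key : ∀ z : DD P x, z * z = 1 → z ≠ 1 → orderOf (φ z) = 2 := by
      intro z hz hz1
      rw [orderOf_injective φ hφ]
      exact orderOf_eq_prime (by rw [pow_two]; exact hz) hz1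
    have k1 := key ⟨y, hy⟩ (Subtype.ext h1) (fun e => h2 (congrArg Subtype.val e))
    have k2 := key ⟨y', hy'⟩ (Subtype.ext h1') (fun e => h2' (congrArg Subtype.val e))
    have h3 : φ ⟨y, hy⟩ = φ ⟨y', hy'⟩ := by
      obtain ⟨e1, e2⟩ := (orderOf_eq_prime_iff (p := 2)).1 k1
      obtain ⟨e3, e4⟩ := (orderOf_eq_prime_iff (p := 2)).1 k2
      obtain ⟨k, hk⟩ := mem_zpowers_of_cyclic (p := 2) _ _ e1 e2 e3
      rcases Int.even_or_odd' k with ⟨j, rfl | rfl⟩
      · exfalso
        apply e4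
        rw [← hk, zpow_mul]
        have : φ ⟨y, hy⟩ ^ (2 : ℤ) = 1 := by exact_mod_cast e1
        rw [this, one_zpow]
      · rw [zpow_add, zpow_mul, zpow_one] at hk
        have : φ ⟨y, hy⟩ ^ (2 : ℤ) = 1 := by exact_mod_cast e1
        rw [this, one_zpow, one_mul] at hk
        exact hk
    exact congrArg Subtype.val (hφ h3)
  have hcard : Nat.card (DD P x) ≤ Nat.card C := Nat.card_le_card_of_injective φ hφ
  rcases hn with hn | hn
  · exact g3_of_four hT hP x hone (hcard.trans hn)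
  · exact g3_of_one hT hP x hone (lt_of_le_of_lt (Nat.mul_le_mul_left 3 hcard) (hn _ (inn_pgroup hT hP)))

end Cfsg.Agent.H728.B3
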