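/-
helper728 (S5761, task 2827): the row `PSU_n(q)`, `n ≥ 3`, `q` odd, `p = 2`.
-/
import Mathlib
import Cfsg.Agent.H728.B3.Frat
import Cfsg.Agent.H728.Meet2.PsuB
import Cfsg.Agent.H183.OutPSU
import Cfsg.Agent.S0280
import Cfsg.Agent.S0283

/-!
# `Row3 2 (PSU_n(q))`, `q` odd (helper728)

* `meet_NN` : `MeetIn 2` for the group `PGU_n(q)` of inner-diagonal automorphisms;
* `row2_psu` : the row.
-/

set_option autoImplicit false

namespace Cfsg.Agent.H728.B3

open Subgroup Cfsg.Agent.H233.B3 Cfsg.Agent.H68.MeetB Cfsg.Agent.H728.Meet2 Cfsg.Agent.H749 Matrix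
open Cfsg.Agent.H183.OutPSU Cfsg.Agent.ClassicalGeometry.PSUAutCount Cfsg.Agent.ClassicalGeometry.UnitAutBasic
open Cfsg.Agent.LieClassical.FieldTransfer Cfsg.Agent.LieClassical.SUBasic Cfsg Cfsg.Agent.H183.OutAbs

/-- two surjections with the same kernel -/
theorem meetIn_of_surj {G A B : Type*} [Group G] [Group A] [Group B] {p : ℕ} (f : G →* A) (g : G →* B)
    (hf : Function.Surjective f) (hg : Function.Surjective g) (hk : f.ker = g.ker) (h : MeetIn p A) : MeetIn p B := by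
  have e1 := QuotientGroup.quotientKerEquivOfSurjective f hf
  have e2 := QuotientGroup.quotientKerEquivOfSurjective g hg
  exact h.congr ((e1.symm.trans (QuotientGroup.quotientMulEquivOfEq hk)).trans e2)

variable {F : Type} [Field F] [Fintype F] {n q : ℕ}

/-- **`MeetIn 2 PGU_n(q)`.** -/
theorem meet_NN (hF : Fintype.card F = q ^ 2) (hq : Odd q) (hn : 3 ≤ n) : MeetIn 2 (NN n q F) := by
  change MeetIn 2 (cG n q F).range
  obtain ⟨m, ε, rfl, hε⟩ : ∃ m ε, n = 2 * m + ε ∧ ε < 2 := ⟨n / 2, n % 2, by omega, by omega⟩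
  obtain ⟨σ, hσ⟩ := ClassicalGeometry.GUBasic.exists_powHom hF
  have hσ2 := sigma_sigma hF hσ
  obtain ⟨j, hj⟩ := (ff_hermF (m := m) (ε := ε) hσ2).exists_iso (sigma_ne hF hσ) hσ2 hσ (finrank_VV m ε)
  have hS : SimF j (hermForm (2 * m + ε) F q) (ff σ m ε) 1 := ⟨one_ne_zero, fun x y => by rw [one_mul]; exact hj x y⟩
  let e : Cfsg.GU (2 * m + ε) F q ≃* Iso (ff σ m ε) := isoEquiv hS
  have he : ∀ (A : Cfsg.GU (2 * m + ε) F q) v, (e A : VV F m ε ≃ₗ[F] VV F m ε) v = j (gm A *ᵥ j.symm v) := fun A v => rfl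
  refine meetIn_of_surj ((QuotientGroup.mk' (ZU σ m ε)).comp e.toMonoidHom) (cG (2 * m + ε) q F).rangeRestrict
    ((QuotientGroup.mk'_surjective _).comp e.surjective) (MonoidHom.rangeRestrict_surjective _) ?_
    (meetU hF hq hσ hn hε)
  ext A
  have h0 : A ∈ (cG (2 * m + ε) q F).rangeRestrict.ker ↔ cG (2 * m + ε) q F A = 1 := by
    rw [MonoidHom.ker_rangeRestrict]
    exact Iff.rfl
  have h1 : A ∈ ((QuotientGroup.mk' (ZU σ m ε)).comp e.toMonoidHom).ker ↔ e A ∈ ZU σ m ε := QuotientGroup.eq_one_iff _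
  rw [h1, h0]
  constructor
  · rintro ⟨r, hr⟩
    apply MulEquiv.ext
    intro x
    obtain ⟨g, rfl⟩ := pr_surjective x
    have hA : ∀ v, gm A *ᵥ v = r • v := by
      intro v
      have h2 := hr (j v)
      rw [he, LinearEquiv.symm_apply_apply, ← map_smul] at h2
      exact j.injective h2
    rw [cG_apply, toAut_pr, MulAut.one_apply]
    congr 1
    apply Cfsg.Agent.LieClassical.HermSiegel.ext_act
    intro y
    have hy : y = gm A *ᵥ (gm A⁻¹ *ᵥ y) := (gm_mulVec_inv _ _).symm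
    generalize gm A⁻¹ *ᵥ y = z at hy
    subst hy
    refine Eq.trans (act_semiConj A 1 g z) ?_
    rw [hA, hA]
    exact (Matrix.mulVec_smul (R := F) _ r z).symm
  · intro hA
    rw [cG_apply, ← (cG (2 * m + ε) q F).map_one, cG_apply] at hA
    obtain ⟨-, c, hc, hcA⟩ := eq_of_toAut_eq hF hn hA
    have hc0 : c ≠ 0 := left_ne_zero_of_mul_eq_one hc
    refine ⟨c⁻¹, fun v => ?_⟩
    have h2 : gm A = c⁻¹ • (1 : Matrix (Fin (2 * m + ε)) (Fin (2 * m + ε)) F) := by
      rw [← gm_one (q := q), hcA, smul_smul, inv_mul_cancel₀ hc0, one_smul]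
    rw [he, h2, Matrix.smul_mulVec, Matrix.one_mulVec, map_smul, LinearEquiv.apply_symm_apply]

omit [Fintype F] in
/-- commutators of inner-diagonal automorphisms are inner -/
theorem commutator_NN : ⁅NN n q F, NN n q F⁆ ≤ (MulAut.conj : PSU n F q →* MulAut (PSU n F q)).range := by
  rw [Subgroup.commutator_le]
  rintro _ ⟨A, rfl⟩ _ ⟨B, rfl⟩
  let d : GU n F q →* Fˣ := Matrix.GeneralLinearGroup.det.comp (GU n F q).subtype
  have hd : (gm (A * B * A⁻¹ * B⁻¹)).det = 1 := by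
    have h1 : d (A * B * A⁻¹ * B⁻¹) = 1 := by
      rw [map_mul, map_mul, map_mul, map_inv, map_inv, mul_comm (d A) (d B), mul_inv_cancel_right, mul_inv_cancel]
    exact congrArg Units.val h1
  obtain ⟨g, hg⟩ := exists_SU_of_det _ hd
  refine ⟨pr n F q g, ?_⟩
  rw [← cG_of_SU g _ hg, commutatorElement_def, map_mul, map_mul, map_mul, map_inv, map_inv]

theorem six_lt_cube {p f : ℕ} (hf : 1 ≤ f) (h3 : 3 ≤ p) : 3 * (2 * f) < (p ^ f) ^ 3 := by
  have h1 : 3 * (2 * f) < 27 ^ f := by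
    induction f, hf using Nat.le_induction with
    | base => norm_num
    | succ k hk ih => rw [pow_succ]; omega
  calc 3 * (2 * f) < 27 ^ f := h1
    _ = (3 ^ f) ^ 3 := by rw [← pow_mul, mul_comm f 3, pow_mul]; norm_num
    _ ≤ (p ^ f) ^ 3 := Nat.pow_le_pow_left (Nat.pow_le_pow_left h3 f) 3

/-- **The row `PSU_n(q)`, `n ≥ 3`, `q` odd** -/
theorem row2_psu (hF : Fintype.card F = q ^ 2) (hn : 3 ≤ n) (hq : Odd (Fintype.card F)) : Row3 2 (PSU n F q) := by
  have hqo : Odd q := by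
    rw [hF] at hq
    exact (Nat.odd_pow_iff (by norm_num)).1 hq
  have h32 : ¬ (n = 3 ∧ q = 2) := by
    rintro ⟨-, rfl⟩
    exact absurd hqo (by decide)
  obtain ⟨p, hch⟩ := CharP.exists F
  have hp : Fact p.Prime := ⟨CharP.char_is_prime F p⟩
  obtain ⟨k, -, hk⟩ := FiniteField.card F p
  obtain ⟨f, hf, hqf⟩ : ∃ f, 1 ≤ f ∧ q = p ^ f := by
    have h1 : q ∣ p ^ (k : ℕ) := by
      rw [← hk, hF]
      exact dvd_pow_self q (by norm_num)
    obtain ⟨f, -, hf⟩ := (Nat.dvd_prime_pow hp.out).1 h1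
    refine ⟨f, ?_, hf⟩
    by_contra hcon
    have : f = 0 := by omega
    rw [this, pow_zero] at hf
    rw [hf, hk, one_pow] at hF
    have := Nat.one_lt_pow (n := k) k.ne_zero hp.out.one_lt
    omega
  have hp3 : 3 ≤ p := by
    have h1 := hp.out.two_le
    rcases Nat.lt_or_ge 2 p with h2 | h2
    · exact h2
    · exfalso
      have h3 : p = 2 := by omega
      rw [h3] at hqf
      rw [hqf, Nat.odd_pow_iff (by omega)] at hqo
      exact absurd hqo (by decide)
  have hq1 : 1 < q := by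
    rw [hqf]
    exact Nat.one_lt_pow (by omega) hp.out.one_lt
  have hcard : Fintype.card F = p ^ (2 * f) := by rw [hF, hqf, ← pow_mul, mul_comm]
  have hs : IsSimpleGroup (PSU n F q) := Cfsg.Agent.S0283.result hF n hn h32
  have hord := Cfsg.Agent.S0280.result hF n (by omega)
  have hfinG : Finite (Cfsg.GU n F q) := LieClassical.GUOrder.finite_GU n
  have hfinP : Finite (PSU n F q) := Finite.of_surjective _ (pr_surjective (n := n) (F := F) (q := q))
  have hd : q ^ 3 ∣ Nat.card (PSU n F q) := by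
    have h1 : q ^ 3 ∣ Nat.gcd n (q + 1) * ((q + 1) * Nat.card (PSU n F q)) := by
      rw [hord]
      refine Dvd.dvd.mul_right (pow_dvd_pow q ?_) _
      have : 3 * 2 ≤ n * (n - 1) := Nat.mul_le_mul (by omega) (by omega)
      omega
    have h2 : Nat.Coprime (q ^ 3) (q + 1) := Nat.Coprime.pow_left _ (by simp)
    have h3 : Nat.Coprime (q ^ 3) (Nat.gcd n (q + 1)) := h2.coprime_dvd_right (Nat.gcd_dvd_right _ _)
    exact h2.dvd_of_dvd_mul_left (h3.dvd_of_dvd_mul_left h1)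
  have hT : ¬ IsMulCommutative (PSU n F q) := by
    apply not_comm_of_card
    intro h1
    have h2 : q * q ∣ Nat.card (PSU n F q) := by
      refine Dvd.dvd.trans ?_ hd
      rw [← pow_two]
      exact pow_dvd_pow q (by norm_num)
    have h3 := h1.prime.squarefree q h2
    rw [Nat.isUnit_iff] at h3
    omega
  have hsurj := Cfsg.Agent.ClassicalGeometry.PSUAutMain.exists_toAut hF hn h32
  have hN : (NN n q F).Normal := normal_of hsurj
  obtain ⟨ψ, -, hψ, -⟩ := exists_split_hom (NN n q F) (sG n q F)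
    (fun α => by
      obtain ⟨A, σ, rfl⟩ := hsurj α
      exact ⟨σ, cG n q F A, ⟨A, rfl⟩, toAut_eq A σ⟩)
    (fun σ hσ => by
      obtain ⟨A, hA⟩ := hσ
      exact (eq_of_toAut_eq hF hn (A := A) (A' := 1) (ρ := 1) (ρ' := σ) hA).1)
  have hcF : Nat.card (F ≃+* F) = 2 * f := Cfsg.Agent.Lib.FieldAutCard.card_ringAut (by omega) hcard
  have hfinA : Finite (F ≃+* F) := Nat.finite_of_card_ne_zero (by rw [hcF]; omega)
  have hcyc : IsCyclic (F ≃+* F) := Cfsg.Agent.LieRecognition.FieldSemilinear.isCyclic_ringAut F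
  refine row3_of_split hT ψ ?_ ?_ (Or.inr fun Q hQ => ?_)
  · rw [hψ]
    exact commutator_NN
  · rw [hψ]
    exact meet_NN hF hqo hn
  · refine lt_index_of_dvd (m := q ^ 3) hqo.pow hd ?_ hQ
    rw [hcF, hqf]
    exact six_lt_cube hf hp3

end Cfsg.Agent.H728.B3
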